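import Cfsg.Agent.H839.IF4.Small
import Cfsg.Agent.H411.L4.LR

/-!
# S5719, cell `PSL four`, `q` odd, case (t3) (helper839)

* `opp` : two opposite transvections in `A` give `diag(-1, -1, 1, 1)` in a conjugate of `A`;
* `t3_t1` : the same from an involution `c · diag(1, 1, 1, -1)` of `A`.
-/

set_option autoImplicit false
set_option linter.unusedSectionVars false

namespace Cfsg.Agent.H839.IF4

open Matrix Module Cfsg.Agent.H209.Fxy Cfsg.Agent.H358.IF

variable {F : Type} [Field F]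

theorem det_tv {v φ : I4 → F} (h : φ ⬝ᵥ v = 0) : (1 + vecMulVec v φ).det = 1 := by
  rw [vecMulVec_eq Unit, det_one_add_replicateCol_mul_replicateRow, h, add_zero]

/-- the transvection `1 + v ⊗ φ` -/
def tv (v φ : I4 → F) (h : φ ⬝ᵥ v = 0) : S4 F := ⟨1 + vecMulVec v φ, det_tv h⟩

theorem tv_mul (v φ ψ : I4 → F) (h : φ ⬝ᵥ v = 0) :
    (1 + vecMulVec v φ) * (1 + vecMulVec v ψ) = 1 + vecMulVec v (φ + ψ) := by
  rw [mul_add, mul_one, add_mul, one_mul, vecMulVec_mul_vecMulVec, h, zero_smul, vecMulVec_zero, add_zero,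
    vecMulVec_add, add_assoc]

theorem tv_mulVec (v φ w : I4 → F) : (1 + vecMulVec v φ) *ᵥ w = w + (φ ⬝ᵥ w) • v := by
  rw [add_mulVec, one_mulVec, vecMulVec_mulVec]
  congr 1
  funext i
  simp [mul_comm]

section opp

/-- an invertible matrix with given columns -/
theorem exists_gl {b : I4 → (I4 → F)} (hb : LinearIndependent F b) :
    ∃ g : GL I4 F, ∀ i j, g.val i j = b j i := by
  have h1 : IsUnit (Matrix.of fun i j => b j i) := by
    rw [← Matrix.linearIndependent_cols_iff_isUnit]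
    exact hb
  obtain ⟨g, hg⟩ := h1
  exact ⟨g, fun i j => by rw [hg]; rfl⟩

/-- two independent vectors in the common kernel -/
theorem exists_ker (φ φ' : I4 → F) : ∃ w₁ w₂ : I4 → F, LinearIndependent F ![w₁, w₂] ∧ φ ⬝ᵥ w₁ = 0 ∧ φ' ⬝ᵥ w₁ = 0 ∧
    φ ⬝ᵥ w₂ = 0 ∧ φ' ⬝ᵥ w₂ = 0 := by
  let L : (I4 → F) →ₗ[F] (Fin 2 → F) := (Matrix.of ![φ, φ'] : Matrix (Fin 2) I4 F).mulVecLin
  have hL : ∀ w, L w = ![φ ⬝ᵥ w, φ' ⬝ᵥ w] := by
    intro w
    funext i
    fin_cases i <;> rfl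
  have h1 := LinearMap.finrank_range_add_finrank_ker L
  have h2 : finrank F (LinearMap.range L) ≤ 2 := (Submodule.finrank_le _).trans (by simp)
  have h3 : finrank F (I4 → F) = 4 := by simp
  have h4 : 2 ≤ finrank F (LinearMap.ker L) := by omega
  obtain ⟨f, hf⟩ := exists_linearIndependent_of_le_finrank (R := F) (M := LinearMap.ker L) h4
  have hf' : LinearIndependent F (fun i => (f i : I4 → F)) :=
    hf.map' (LinearMap.ker L).subtype (Submodule.ker_subtype _)
  have hk : ∀ i, φ ⬝ᵥ (f i : I4 → F) = 0 ∧ φ' ⬝ᵥ (f i : I4 → F) = 0 := by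
    intro i
    have h5 : L (f i : I4 → F) = 0 := (f i).2
    rw [hL] at h5
    exact ⟨congrFun h5 0, congrFun h5 1⟩
  refine ⟨f 0, f 1, ?_, (hk 0).1, (hk 0).2, (hk 1).1, (hk 1).2⟩
  convert hf' using 1
  funext i
  fin_cases i <;> rfl

variable {A : Subgroup (P4 F)}

/-- **two opposite transvections** -/
theorem opp [Finite F] (h2 : (2 : F) ≠ 0) {v v' φ φ' : I4 → F} {x x' : S4 F} (hx : x ∈ At A) (hx' : x' ∈ At A)
    (hxv : x.val = 1 + vecMulVec v φ) (hxv' : x'.val = 1 + vecMulVec v' φ') (h11 : φ ⬝ᵥ v = 0) (h22 : φ' ⬝ᵥ v' = 0)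
    (h12 : φ ⬝ᵥ v' ≠ 0) (h21 : φ' ⬝ᵥ v ≠ 0) : ∃ g : GL I4 F, blk (-1, 1) ∈ At (cA g A) := by
  obtain ⟨w₁, w₂, hw, k1, k1', k2, k2'⟩ := exists_ker φ φ'
  let b : I4 → (I4 → F) := Sum.elim ![v, v'] ![w₁, w₂]
  have hb : LinearIndependent F b := by
    rw [Fintype.linearIndependent_iff]
    intro c hc
    rw [Fintype.sum_sum_type, Fin.sum_univ_two, Fin.sum_univ_two] at hc
    have hc' : c (Sum.inl 0) • v + c (Sum.inl 1) • v' + (c (Sum.inr 0) • w₁ + c (Sum.inr 1) • w₂) = 0 := hc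
    have e1 : c (Sum.inl 1) = 0 := by
      have h3 := congrArg (fun w => φ ⬝ᵥ w) hc'
      simp only [dotProduct_add, dotProduct_smul, h11, k1, k2, dotProduct_zero, smul_eq_mul, mul_zero, zero_add,
        add_zero] at h3
      exact (mul_eq_zero.1 h3).resolve_right h12
    have e0 : c (Sum.inl 0) = 0 := by
      have h3 := congrArg (fun w => φ' ⬝ᵥ w) hc'
      simp only [dotProduct_add, dotProduct_smul, h22, k1', k2', dotProduct_zero, smul_eq_mul, mul_zero,
        add_zero] at h3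
      exact (mul_eq_zero.1 h3).resolve_right h21
    rw [e0, e1, zero_smul, zero_smul, add_zero, zero_add] at hc'
    have h3 := (LinearIndependent.pair_iff.1 hw) _ _ hc'
    rintro (i | i)
    · fin_cases i
      · exact e0
      · exact e1
    · fin_cases i
      · exact h3.1
      · exact h3.2
  obtain ⟨g, hg⟩ := exists_gl hb
  have hcol : ∀ (M : Matrix I4 I4 F) (i j : I4), (M * g.val) i j = (M *ᵥ b j) i := by
    intro M i j
    rw [Matrix.mul_apply, mulVec, dotProduct]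
    exact Finset.sum_congr rfl fun k _ => by rw [hg]
  -- the two conjugates
  let u : S2 F := ⟨!![1, φ ⬝ᵥ v'; 0, 1], by rw [det_fin_two_of]; ring⟩
  let l : S2 F := ⟨!![1, 0; φ' ⬝ᵥ v, 1], by rw [det_fin_two_of]; ring⟩
  have key : ∀ (y : S4 F) (a : S2 F), y.val * g.val = g.val * (blk (a, 1)).val → cS g⁻¹ y = blk (a, 1) := by
    intro y a hy
    apply Subtype.ext
    rw [cS_val, inv_inv, mul_assoc, hy, ← mul_assoc, Units.inv_mul, one_mul]
  have hu : cS g⁻¹ x = blk (u, 1) := by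
    apply key
    ext i j
    rw [hcol, hxv, tv_mulVec, blk_val, Matrix.mul_apply, Fintype.sum_sum_type, Fin.sum_univ_two, Fin.sum_univ_two]
    simp only [hg]
    rcases j with j | j <;> fin_cases j
    · simp [b, u, h11]
    · simp [b, u, mul_comm, add_comm]
    · simp [b, u, k1]
    · simp [b, u, k2]
  have hl : cS g⁻¹ x' = blk (l, 1) := by
    apply key
    ext i j
    rw [hcol, hxv', tv_mulVec, blk_val, Matrix.mul_apply, Fintype.sum_sum_type, Fin.sum_univ_two, Fin.sum_univ_two]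
    simp only [hg]
    rcases j with j | j <;> fin_cases j
    · simp [b, l, mul_comm]
    · simp [b, l, h22]
    · simp [b, l, k1']
    · simp [b, l, k2']
  have mu : blk (u, 1) ∈ At (cA g⁻¹ A) := by
    rw [← hu]
    exact mem_cA.2 hx
  have ml : blk (l, 1) ∈ At (cA g⁻¹ A) := by
    rw [← hl]
    exact mem_cA.2 hx'
  obtain ⟨y, hy, hyy⟩ := Cfsg.Agent.H411.L4.exists_sq h2 h12 h21
    ((At (cA g⁻¹ A)).comap ((blk : S2 F × S2 F →* S4 F).comp (MonoidHom.inl (S2 F) (S2 F)))) (x := u) (x' := l) mu ml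
    rfl rfl
  refine ⟨g⁻¹, ?_⟩
  have h3 : blk ((-1 : S2 F), (1 : S2 F)) = blk (y, 1) * blk (y, 1) := by
    rw [← map_mul]
    congr 1
    refine Prod.ext ?_ (mul_one 1).symm
    apply Subtype.ext
    show -(1 : Matrix (Fin 2) (Fin 2) F) = y.val * y.val
    exact hyy.symm
  rw [h3]
  exact mul_mem hy hy

end opp

section three

variable [Fintype F] {A : Subgroup (P4 F)}

/-- `diag(1, 1, 1, -1)` -/
def D1 : Matrix I4 I4 F := Matrix.diagonal fun i => if i = Sum.inr 1 then -1 else 1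

theorem D1_comm {v φ : I4 → F} (hv : v (Sum.inr 1) = 0) (hφ : φ (Sum.inr 1) = 0) :
    (1 + vecMulVec v φ) * D1 = D1 * (1 + vecMulVec v φ) := by
  ext i j
  rw [D1, Matrix.mul_diagonal, Matrix.diagonal_mul]
  by_cases hi : i = Sum.inr 1
  · by_cases hj : j = Sum.inr 1
    · rw [hi, hj, mul_comm]
    · subst hi
      rw [if_pos rfl, if_neg hj, Matrix.add_apply, Matrix.one_apply_ne (Ne.symm hj), vecMulVec_apply, hv]
      ring
  · by_cases hj : j = Sum.inr 1
    · subst hj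
      rw [if_pos rfl, if_neg hi, Matrix.add_apply, Matrix.one_apply_ne hi, vecMulVec_apply, hφ]
      ring
    · rw [if_neg hi, if_neg hj, mul_comm]

theorem pr_comm {t x : S4 F} {c : F} {D : Matrix I4 I4 F} (htv : t.val = c • D) (hx : x.val * D = D * x.val) :
    pr (x * t) = pr (t * x) := by
  congr 1
  apply Subtype.ext
  show x.val * t.val = t.val * x.val
  rw [htv, Matrix.mul_smul, Matrix.smul_mul, hx]

/-- functionals vanishing at `v` and `e₄` -/
def Phi (v : I4 → F) : Submodule F (I4 → F) where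
  carrier := {φ | φ ⬝ᵥ v = 0 ∧ φ (Sum.inr 1) = 0}
  add_mem' := fun ha hb => ⟨by rw [add_dotProduct, ha.1, hb.1, add_zero], by rw [Pi.add_apply, ha.2, hb.2, add_zero]⟩
  zero_mem' := ⟨zero_dotProduct _, rfl⟩
  smul_mem' := fun c a ha => ⟨by rw [smul_dotProduct, ha.1, smul_zero], by rw [Pi.smul_apply, ha.2, smul_zero]⟩

theorem card_Phi (v : I4 → F) : Fintype.card F ^ 2 ≤ Nat.card (Phi v) := by
  let L : (I4 → F) →ₗ[F] (Fin 2 → F) := (Matrix.of ![v, Pi.single (Sum.inr 1) 1] : Matrix (Fin 2) I4 F).mulVecLin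
  have hL : LinearMap.ker L = Phi v := by
    ext φ
    have h1 : L φ = ![v ⬝ᵥ φ, φ (Sum.inr 1)] := by
      funext i
      fin_cases i
      · rfl
      · show (Pi.single (Sum.inr 1) 1 : I4 → F) ⬝ᵥ φ = φ (Sum.inr 1)
        rw [single_one_dotProduct]
    rw [LinearMap.mem_ker, h1]
    constructor
    · intro h
      refine ⟨?_, congrFun h 1⟩
      rw [dotProduct_comm]
      exact congrFun h 0
    · rintro ⟨h3, h4⟩
      funext i
      fin_cases i
      · show v ⬝ᵥ φ = 0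
        rw [dotProduct_comm]
        exact h3
      · exact h4
  have h1 := LinearMap.finrank_range_add_finrank_ker L
  have h2 : finrank F (LinearMap.range L) ≤ 2 := (Submodule.finrank_le _).trans (by simp)
  have h3 : finrank F (I4 → F) = 4 := by simp
  rw [hL] at h1
  rw [Module.natCard_eq_pow_finrank (K := F), Nat.card_eq_fintype_card (α := F)]
  exact Nat.pow_le_pow_right Fintype.card_pos (by omega)

/-- the transvections with centre `v` commuting with `D1` -/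
def Tv (v : I4 → F) : Multiplicative (Phi v) →* S4 F where
  toFun φ := tv v (Multiplicative.toAdd φ : Phi v).1 (Multiplicative.toAdd φ : Phi v).2.1
  map_one' := Subtype.ext (by
    show 1 + vecMulVec v 0 = 1
    rw [vecMulVec_zero, add_zero])
  map_mul' φ ψ := Subtype.ext (by
    show 1 + vecMulVec v ((Multiplicative.toAdd φ : Phi v).1 + (Multiplicative.toAdd ψ : Phi v).1) =
      (1 + vecMulVec v (Multiplicative.toAdd φ : Phi v).1) * (1 + vecMulVec v (Multiplicative.toAdd ψ : Phi v).1)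
    rw [tv_mul _ _ _ (Multiplicative.toAdd φ : Phi v).2.1])

theorem Tv_inj {v : I4 → F} (hv : v ≠ 0) : Function.Injective (Tv v) := by
  rw [injective_iff_map_eq_one]
  intro φ hφ
  have h1 : 1 + vecMulVec v (Multiplicative.toAdd φ : Phi v).1 = 1 := congrArg Subtype.val hφ
  rw [add_eq_left, vecMulVec_eq_zero] at h1
  apply Multiplicative.toAdd.injective
  exact Subtype.ext (h1.resolve_left hv)

/-- a large set commuting with `D1` -/
theorem card_cent : Fintype.card F ^ 5 ≤ {x : S4 F | x.val * D1 = D1 * x.val}.ncard ∨ Fintype.card F = 2 := by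
  by_cases hq : Fintype.card F = 2
  · exact Or.inr hq
  left
  have hq3 : 3 ≤ Fintype.card F := by
    have := Fintype.one_lt_card (α := F)
    omega
  -- `[[a, b ⊗ e₀], [0, diag(1, det a⁻¹)]]`
  let f : GL (Fin 2) F × (Fin 2 → F) → {x : S4 F | x.val * D1 = D1 * x.val} := fun p =>
    ⟨⟨fromBlocks p.1.val (vecMulVec p.2 ![1, 0]) 0 (Matrix.diagonal ![1, (p.1.val.det)⁻¹]), by
      rw [det_fromBlocks_zero₂₁, det_diagonal, Fin.prod_univ_two]
      show p.1.val.det * (1 * (p.1.val.det)⁻¹) = 1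
      rw [one_mul, mul_inv_cancel₀]
      exact (Matrix.isUnit_iff_isUnit_det _).1 p.1.isUnit |>.ne_zero⟩, by
      show fromBlocks _ _ _ _ * D1 = D1 * fromBlocks _ _ _ _
      ext i j
      rw [D1, Matrix.mul_diagonal, Matrix.diagonal_mul]
      rcases i with i | i <;> rcases j with j | j <;> fin_cases i <;> fin_cases j <;>
        simp⟩
  have hf : Function.Injective f := by
    rintro ⟨a, b⟩ ⟨a', b'⟩ h
    have h1 : fromBlocks a.val (vecMulVec b ![1, 0]) 0 (Matrix.diagonal ![1, (a.val.det)⁻¹]) =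
        fromBlocks a'.val (vecMulVec b' ![1, 0]) 0 (Matrix.diagonal ![1, (a'.val.det)⁻¹]) :=
      congrArg (fun x : {x : S4 F | x.val * D1 = D1 * x.val} => x.1.val) h
    rw [fromBlocks_inj] at h1
    obtain ⟨h2, h3, -, -⟩ := h1
    have h4 : a = a' := Units.ext h2
    have h5 : b = b' := by
      funext i
      have := congrFun (congrFun h3 i) 0
      simpa [vecMulVec_apply] using this
    rw [h4, h5]
  have h1 := Nat.card_le_card_of_injective f hf
  rw [Nat.card_prod, Matrix.card_GL_field, Fin.prod_univ_two, Nat.card_coe_set_eq, Nat.card_fun,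
    Nat.card_eq_fintype_card (α := F), Nat.card_eq_fintype_card (α := Fin 2), Fintype.card_fin] at h1
  refine le_trans ?_ h1
  generalize Fintype.card F = q at hq3 ⊢
  obtain ⟨r, rfl⟩ : ∃ r, q = r + 3 := ⟨q - 3, by omega⟩
  have e1 : (r + 3) ^ 2 - (r + 3) ^ ((0 : Fin 2) : ℕ) = r ^ 2 + 6 * r + 8 := by
    have : (r + 3) ^ 2 = r ^ 2 + 6 * r + 9 := by ring
    simp
    omega
  have e2 : (r + 3) ^ 2 - (r + 3) ^ ((1 : Fin 2) : ℕ) = (r + 3) * (r + 2) := by
    have : (r + 3) ^ 2 = (r + 3) * (r + 2) + (r + 3) := by ring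
    simp
    omega
  rw [e1, e2]
  nlinarith [Nat.zero_le r, sq_nonneg r, Nat.zero_le (r ^ 2), Nat.zero_le (r ^ 3), Nat.zero_le (r ^ 4),
    Nat.zero_le (r ^ 5)]

theorem ord_D1 (h2 : (2 : F) ≠ 0) {t : S4 F} {c : F} (htv : t.val = c • D1) : orderOf (pr t) = 2 := by
  have hc : c ≠ 0 := by
    rintro rfl
    have h1 := t.2
    rw [htv, zero_smul, det_zero] at h1
    exact zero_ne_one h1
  refine ord_pr (c := c * c) ?_ ?_
  · rw [htv, Matrix.smul_mul, Matrix.mul_smul, smul_smul, D1, Matrix.diagonal_mul_diagonal, ← Matrix.diagonal_one]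
    congr 2
    funext i
    split_ifs <;> ring
  · intro d hd
    rw [htv] at hd
    have e1 := congrFun (congrFun hd (Sum.inl 0)) (Sum.inl 0)
    have e2 := congrFun (congrFun hd (Sum.inr 1)) (Sum.inr 1)
    simp [D1] at e1 e2
    rw [← e1] at e2
    have h3 : (2 : F) * c = 0 := by linear_combination -e2
    exact (mul_ne_zero h2 hc) h3

/-- a transvection of `A` with given centre -/
theorem exists_row (h2 : (2 : F) ≠ 0) (h : IFA A) {t : S4 F} (ht : t ∈ At A) {c : F} (htv : t.val = c • D1)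
    {v : I4 → F} (hv : v ≠ 0) (hv3 : v (Sum.inr 1) = 0) :
    ∃ φ : I4 → F, φ ≠ 0 ∧ φ ⬝ᵥ v = 0 ∧ φ (Sum.inr 1) = 0 ∧ ∃ x ∈ At A, x.val = 1 + vecMulVec v φ := by
  have hq : Fintype.card F ≠ 2 := by
    intro hq
    apply h2
    have h3 := Nat.cast_card_eq_zero F
    rw [hq] at h3
    exact_mod_cast h3
  have hlt := relIndex_lt h ht (ord_D1 h2 htv) (B := (Tv v).range) (C := {x : S4 F | x.val * D1 = D1 * x.val})
    (by
      rintro _ ⟨φ, rfl⟩
      exact pr_comm htv (D1_comm hv3 (Multiplicative.toAdd φ : Phi v).2.2))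
    (fun x hx => pr_comm htv hx) (card_cent.resolve_right hq)
  obtain ⟨φ, hφ, hm⟩ := exists_mem (Tv v) (Tv_inj hv) (card_Phi v) hlt
  refine ⟨(Multiplicative.toAdd φ : Phi v).1, ?_, (Multiplicative.toAdd φ : Phi v).2.1,
    (Multiplicative.toAdd φ : Phi v).2.2, _, hm, rfl⟩
  intro h3
  apply hφ
  apply Multiplicative.toAdd.injective
  exact Subtype.ext h3

theorem dot4 (φ v : I4 → F) : φ ⬝ᵥ v = φ (Sum.inl 0) * v (Sum.inl 0) + φ (Sum.inl 1) * v (Sum.inl 1) +
    (φ (Sum.inr 0) * v (Sum.inr 0) + φ (Sum.inr 1) * v (Sum.inr 1)) := by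
  rw [dotProduct, Fintype.sum_sum_type, Fin.sum_univ_two, Fin.sum_univ_two]

theorem ne4 {φ : I4 → F} (h : φ ≠ 0) (h0 : φ (Sum.inl 0) = 0) (h1 : φ (Sum.inl 1) = 0) (h3 : φ (Sum.inr 1) = 0) :
    φ (Sum.inr 0) ≠ 0 := by
  intro h2
  apply h
  funext i
  rcases i with i | i <;> fin_cases i
  · exact h0
  · exact h1
  · exact h2
  · exact h3

/-- **case (t3)** -/
theorem t3_t1 (h2 : (2 : F) ≠ 0) (h : IFA A) {t : S4 F} (ht : t ∈ At A) {c : F} (htv : t.val = c • D1) :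
    ∃ g : GL I4 F, blk (-1, 1) ∈ At (cA g A) := by
  let v₁ : I4 → F := Sum.elim ![1, 0] ![0, 0]
  obtain ⟨φ₁, hφ₁, k1, k1', x₁, hx₁, hxv₁⟩ := exists_row h2 h ht htv (v := v₁)
    (fun h3 => one_ne_zero (congrFun h3 (Sum.inl 0))) rfl
  have e1 : φ₁ (Sum.inl 0) = 0 := by
    rw [dot4] at k1
    simpa [v₁] using k1
  set α := φ₁ (Sum.inl 1) with hα
  set β := φ₁ (Sum.inr 0) with hβ
  -- a vector `(0, r, s, 0)` with `α r + β s ≠ 0`
  obtain ⟨r, s, hrs⟩ : ∃ r s : F, α * r + β * s ≠ 0 := by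
    by_cases h3 : α = 0
    · refine ⟨0, 1, ?_⟩
      rw [mul_zero, mul_one, zero_add]
      exact ne4 hφ₁ e1 h3 k1'
    · exact ⟨1, 0, by rw [mul_zero, mul_one, add_zero]; exact h3⟩
  let v₂ : I4 → F := Sum.elim ![0, r] ![s, 0]
  let v₃ : I4 → F := Sum.elim ![0, r + β] ![s - α, 0]
  have d12 : φ₁ ⬝ᵥ v₂ ≠ 0 := by
    rw [dot4]
    simpa [v₂, ← hα, ← hβ] using hrs
  have d13 : φ₁ ⬝ᵥ v₃ ≠ 0 := by
    rw [dot4]
    have h3 : α * (r + β) + β * (s - α) = α * r + β * s := by ring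
    simpa [v₃, ← hα, ← hβ, h3] using hrs
  have n2 : v₂ ≠ 0 := fun h3 => d12 (by rw [h3, dotProduct_zero])
  have n3 : v₃ ≠ 0 := fun h3 => d13 (by rw [h3, dotProduct_zero])
  obtain ⟨φ₂, hφ₂, k2, k2', x₂, hx₂, hxv₂⟩ := exists_row h2 h ht htv n2 rfl
  obtain ⟨φ₃, hφ₃, k3, k3', x₃, hx₃, hxv₃⟩ := exists_row h2 h ht htv n3 rfl
  by_cases c2 : φ₂ (Sum.inl 0) = 0
  swap
  · refine opp h2 hx₁ hx₂ hxv₁ hxv₂ k1 k2 d12 ?_
    rw [dot4]
    simpa [v₁] using c2
  by_cases c3 : φ₃ (Sum.inl 0) = 0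
  swap
  · refine opp h2 hx₁ hx₃ hxv₁ hxv₃ k1 k3 d13 ?_
    rw [dot4]
    simpa [v₁] using c3
  -- a functional `(0, a, b, 0)` killing `v₂` and `v₃` is zero
  have key : ∀ φ : I4 → F, φ ≠ 0 → φ (Sum.inl 0) = 0 → φ (Sum.inr 1) = 0 → φ ⬝ᵥ v₂ = 0 → φ ⬝ᵥ v₃ = 0 → False := by
    intro φ hφ f0 f3 g2 g3
    rw [dot4] at g2 g3
    have g2' : φ (Sum.inl 1) * r + φ (Sum.inr 0) * s = 0 := by simpa [v₂] using g2
    have g3' : φ (Sum.inl 1) * (r + β) + φ (Sum.inr 0) * (s - α) = 0 := by simpa [v₃] using g3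
    have e2 : φ (Sum.inl 1) * (α * r + β * s) = 0 := by linear_combination α * g2' + s * (g3' - g2')
    have e3 : φ (Sum.inr 0) * (α * r + β * s) = 0 := by linear_combination β * g2' - r * (g3' - g2')
    have e4 := (mul_eq_zero.1 e2).resolve_right hrs
    exact ne4 hφ f0 e4 f3 ((mul_eq_zero.1 e3).resolve_right hrs)
  exact opp h2 hx₂ hx₃ hxv₂ hxv₃ k2 k3 (fun h3 => key φ₂ hφ₂ c2 k2' k2 h3) (fun h3 => key φ₃ hφ₃ c3 k3' h3 k3)

end three

end Cfsg.Agent.H839.IF4
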