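import Cfsg.Agent.H839.IF4.TThree

/-!
# S5719, cell `PSL four`, `q` odd, case (t2) (helper839)

`t2_false` : `-1` is not a square in `F`, `blk (j, j) ∈ At A` with `j ^ 2 = -1`; the conclusion (L1) of `blk (-1, 1) ∈ At A'`
is an explicit hypothesis.
-/

set_option autoImplicit false
set_option linter.unusedSectionVars false

namespace Cfsg.Agent.H839.IF4

open Matrix Module Polynomial Cfsg.Agent.H209.Fxy Cfsg.Agent.H358.IF

variable {F : Type} [Field F]

/-! ### the quadratic extension -/

section ext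

theorem exists_ext [Fintype F] (hm : ∀ c : F, c * c ≠ -1) : ∃ (E : Type) (_ : Field E) (_ : Fintype E)
    (L : E →+* M2 F) (i : E), Function.Injective L ∧ i * i = -1 ∧ Fintype.card E = Fintype.card F ^ 2 := by
  classical
  let p : F[X] := X ^ 2 + 1
  have hp : p.Monic := by
    show (X ^ 2 + 1 : F[X]).Monic
    monicity!
  have hd : p.natDegree = 2 := by
    show (X ^ 2 + 1 : F[X]).natDegree = 2
    compute_degree!
  have hirr : Irreducible p := by
    rw [Polynomial.Monic.irreducible_iff_roots_eq_zero_of_degree_le_three hp (by omega) (by omega)]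
    apply Multiset.eq_zero_of_forall_notMem
    intro c hc
    rw [mem_roots hp.ne_zero] at hc
    have h1 : c ^ 2 + 1 = 0 := by
      have h2 : p.eval c = 0 := hc
      simpa [p] using h2
    exact hm c (by linear_combination h1)
  have : Fact (Irreducible p) := ⟨hirr⟩
  let b := ((AdjoinRoot.powerBasis hirr.ne_zero).basis).reindex
    (finCongr ((AdjoinRoot.powerBasis_dim hirr.ne_zero).trans hd))
  have hfin : Module.Finite F (AdjoinRoot p) := Module.Finite.of_basis b
  have hfin' : Finite (AdjoinRoot p) := Module.finite_of_finite F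
  let hft : Fintype (AdjoinRoot p) := Fintype.ofFinite _
  refine ⟨AdjoinRoot p, inferInstance, hft, (Algebra.leftMulMatrix b).toRingHom, AdjoinRoot.root p,
    Algebra.leftMulMatrix_injective b, ?_, ?_⟩
  · have h1 := AdjoinRoot.eval₂_root p
    simp only [p, eval₂_add, eval₂_pow, eval₂_X, eval₂_one] at h1
    linear_combination h1
  · have h1 : Nat.card (AdjoinRoot p) = Nat.card F ^ 2 := by
      rw [Module.natCard_eq_pow_finrank (K := F), Module.finrank_eq_card_basis b, Fintype.card_fin]
    rw [Nat.card_eq_fintype_card, Nat.card_eq_fintype_card] at h1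
    exact h1

/-- two matrices with square `-1` are conjugate -/
theorem conj_of_sq (hm : ∀ c : F, c * c ≠ -1) {j k : M2 F} (hj : j * j = -1) (hk : k * k = -1) :
    ∃ g : GL (Fin 2) F, g.val * j = k * g.val := by
  -- both are conjugate to the matrix with columns `e₁ ↦ e₂ ↦ -e₁`
  have key : ∀ j : M2 F, j * j = -1 → ∃ g : GL (Fin 2) F, j * g.val = g.val * !![0, -1; 1, 0] := by
    intro j hj
    let v : Fin 2 → F := ![1, 0]
    let w : Fin 2 → F := j *ᵥ v
    have hw : j *ᵥ w = -v := by
      show j *ᵥ (j *ᵥ v) = -v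
      rw [mulVec_mulVec, hj, neg_mulVec, one_mulVec]
    have hd : (!![v 0, w 0; v 1, w 1] : M2 F).det ≠ 0 := by
      rw [det_fin_two_of]
      show (1 : F) * w 1 - w 0 * 0 ≠ 0
      rw [one_mul, mul_zero, sub_zero]
      intro h0
      have h1 : w = w 0 • v := by
        funext a
        fin_cases a
        · show w 0 = w 0 * 1
          rw [mul_one]
        · show w 1 = w 0 * 0
          rw [h0, mul_zero]
      have h2 : j *ᵥ w = (w 0 * w 0) • v := by
        have e : j *ᵥ (w 0 • v) = w 0 • w := mulVec_smul _ _ _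
        rw [← h1] at e
        rw [e, mul_smul, ← h1]
      rw [hw] at h2
      have h3 := congrFun h2 0
      have h4 : -(1 : F) = (w 0 * w 0) * 1 := h3
      exact hm (w 0) (by rw [h4, mul_one])
    let g := Matrix.GeneralLinearGroup.mkOfDetNeZero _ hd
    refine ⟨g, ?_⟩
    have hg : g.val = !![v 0, w 0; v 1, w 1] := rfl
    rw [hg]
    have e1 : ∀ a, j a 0 * v 0 + j a 1 * v 1 = w a := by
      intro a
      show _ = (j *ᵥ v) a
      rw [mulVec, dotProduct, Fin.sum_univ_two]
    have e2 : ∀ a, j a 0 * w 0 + j a 1 * w 1 = -v a := by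
      intro a
      have : (j *ᵥ w) a = -v a := by rw [hw]; rfl
      rw [← this, mulVec, dotProduct, Fin.sum_univ_two]
    ext a c
    fin_cases a <;> fin_cases c <;> rw [Matrix.mul_apply, Matrix.mul_apply, Fin.sum_univ_two, Fin.sum_univ_two]
    · simpa using e1 0
    · simpa using e2 0
    · simpa using e1 1
    · simpa using e2 1
  obtain ⟨g, hg⟩ := key j hj
  obtain ⟨g', hg'⟩ := key k hk
  refine ⟨g' * g⁻¹, ?_⟩
  show g'.val * (g⁻¹ : GL (Fin 2) F).val * j = k * (g'.val * (g⁻¹ : GL (Fin 2) F).val)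
  have h1 : (g⁻¹ : GL (Fin 2) F).val * j = !![0, -1; 1, 0] * (g⁻¹ : GL (Fin 2) F).val := by
    calc (g⁻¹ : GL (Fin 2) F).val * j = (g⁻¹ : GL (Fin 2) F).val * j * (g.val * (g⁻¹ : GL (Fin 2) F).val) := by
          rw [Units.mul_inv, mul_one]
      _ = (g⁻¹ : GL (Fin 2) F).val * (j * g.val) * (g⁻¹ : GL (Fin 2) F).val := by simp only [mul_assoc]
      _ = _ := by rw [hg, ← mul_assoc, Units.inv_mul, one_mul]
  rw [mul_assoc, h1, ← mul_assoc, ← hg', mul_assoc]

end ext

/-! ### `SL₂(E)` in `SL₄(F)` -/

section psi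

variable {E : Type} [Field E] (L : E →+* M2 F)

/-- `M₂(E) → M₄(F)` -/
def psm : Matrix (Fin 2) (Fin 2) E →+* Matrix I4 I4 F where
  toFun s := fromBlocks (L (s 0 0)) (L (s 0 1)) (L (s 1 0)) (L (s 1 1))
  map_one' := by
    rw [one_apply_eq, one_apply_ne (by decide), one_apply_ne (by decide), one_apply_eq, map_one, map_zero]
    exact fromBlocks_one
  map_zero' := by
    simp
  map_mul' s s' := by
    rw [fromBlocks_multiply, Matrix.mul_apply, Matrix.mul_apply, Matrix.mul_apply, Matrix.mul_apply]
    simp only [Fin.sum_univ_two, map_add, map_mul]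
  map_add' s s' := by
    rw [fromBlocks_add]
    simp only [Matrix.add_apply, map_add]

theorem psm_apply (s : Matrix (Fin 2) (Fin 2) E) :
    psm L s = fromBlocks (L (s 0 0)) (L (s 0 1)) (L (s 1 0)) (L (s 1 1)) := rfl

theorem psm_inj (hL : Function.Injective L) : Function.Injective (psm L) := by
  intro s s' h
  rw [psm_apply, psm_apply, fromBlocks_inj] at h
  obtain ⟨h1, h2, h3, h4⟩ := h
  ext a b
  fin_cases a <;> fin_cases b
  · exact hL h1
  · exact hL h2
  · exact hL h3
  · exact hL h4

theorem det_psm (s : SpecialLinearGroup (Fin 2) E) : (psm L s.val).det = 1 := by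
  refine LieClassical.SLGen.transvection_induction (fun s => (psm L s.val).det = 1) ?_ ?_ s
  · intro a b hab c
    rw [psm_apply]
    fin_cases a <;> fin_cases b
    · exact absurd rfl hab
    · simp [SpecialLinearGroup.transvection, Matrix.transvection]
    · simp [SpecialLinearGroup.transvection, Matrix.transvection]
    · exact absurd rfl hab
  · intro s s' h h'
    show (psm L (s.val * s'.val)).det = 1
    rw [map_mul, det_mul, h, h', mul_one]

/-- `SL₂(E) → SL₄(F)` -/
def Psi : SpecialLinearGroup (Fin 2) E →* S4 F where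
  toFun s := ⟨psm L s.val, det_psm L s⟩
  map_one' := Subtype.ext (map_one (psm L))
  map_mul' s s' := Subtype.ext (map_mul (psm L) s.val s'.val)

theorem Psi_val (s : SpecialLinearGroup (Fin 2) E) : (Psi L s).val = psm L s.val := rfl

theorem Psi_inj (hL : Function.Injective L) : Function.Injective (Psi L) := by
  intro s s' h
  apply Subtype.ext
  exact psm_inj L hL (congrArg Subtype.val h)

/-- `GL₂(E) → GL₄(F)` -/
def PsiG : GL (Fin 2) E →* GL I4 F := Units.map (psm L : Matrix (Fin 2) (Fin 2) E →* Matrix I4 I4 F)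

theorem PsiG_val (g : GL (Fin 2) E) : (PsiG L g).val = psm L g.val := rfl

theorem PsiG_inv_val (g : GL (Fin 2) E) : ((PsiG L g)⁻¹ : GL I4 F).val = psm L (g⁻¹ : GL (Fin 2) E).val := rfl

/-- the scalars of `E` -/
theorem psm_scalar (e : E) : psm L (e • (1 : Matrix (Fin 2) (Fin 2) E)) = fromBlocks (L e) 0 0 (L e) := by
  rw [psm_apply]
  simp

theorem scalar_comm (e : E) (s : Matrix (Fin 2) (Fin 2) E) :
    psm L s * fromBlocks (L e) 0 0 (L e) = fromBlocks (L e) 0 0 (L e) * psm L s := by
  rw [← psm_scalar, ← map_mul, ← map_mul, Matrix.mul_smul, Matrix.smul_mul, mul_one, one_mul]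

/-- the order of `SL₂(E)` is at least `|E|² (|E| - 1)` -/
theorem card_sl_ge [Fintype E] : Fintype.card E ^ 2 * (Fintype.card E - 1) ≤ Nat.card (SpecialLinearGroup (Fin 2) E) := by
  have h1 : Nat.card (E × Eˣ × E) ≤ Nat.card (SpecialLinearGroup (Fin 2) E) := by
    refine Nat.card_le_card_of_injective (fun p => (⟨!![p.1, (p.1 * p.2.2 - 1) * ((p.2.1⁻¹ : Eˣ) : E); (p.2.1 : E), p.2.2], by
      rw [det_fin_two_of]
      have := p.2.1.inv_mul
      linear_combination (1 - p.1 * p.2.2) * this⟩ : SpecialLinearGroup (Fin 2) E)) ?_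
    rintro ⟨a, c, d⟩ ⟨a', c', d'⟩ h
    have h2 := congrArg Subtype.val h
    have e1 : a = a' := congrFun (congrFun h2 0) 0
    have e2 : (c : E) = c' := congrFun (congrFun h2 1) 0
    have e3 : d = d' := congrFun (congrFun h2 1) 1
    rw [e1, e3, Units.ext e2]
  rw [Nat.card_prod, Nat.card_prod, Nat.card_units, Nat.card_eq_fintype_card (α := E)] at h1
  calc Fintype.card E ^ 2 * (Fintype.card E - 1) = Fintype.card E * ((Fintype.card E - 1) * Fintype.card E) := by ring
    _ ≤ _ := h1

end psi

/-! ### the two unipotent groups -/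

section two

variable [Fintype F] {A : Subgroup (P4 F)} {E : Type} [Field E] [Fintype E] {L : E →+* M2 F}

/-- the data: `L : E → M₂(F)`, `j = L i`, `blk (j, j) ∈ At A` -/
theorem two_mem (hL : Function.Injective L) (hE : Fintype.card E = Fintype.card F ^ 2) {i : E} (hi : i * i = -1)
    (hm : ∀ c : F, c * c ≠ -1) (h : IFA A) {t : S4 F} (ht : t ∈ At A) (htv : t.val = fromBlocks (L i) 0 0 (L i)) :
    (∃ e : E, e ≠ 0 ∧ up (Multiplicative.ofAdd (L e)) ∈ At A) ∧ ∃ e : E, e ≠ 0 ∧ lo (Multiplicative.ofAdd (L e)) ∈ At A := by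
  have htv' : t.val = (1 : F) • fromBlocks (L i) 0 0 (L i) := by rw [one_smul, htv]
  have hord : orderOf (pr t) = 2 := by
    refine ord_pr (c := -1) ?_ ?_
    · rw [htv, ← psm_scalar, ← map_mul, Matrix.smul_mul, one_mul, smul_smul, hi, neg_smul, one_smul, map_neg, map_one,
        neg_smul, one_smul]
    · intro d hd
      have h1 : t.val * t.val = (d * d) • (1 : Matrix I4 I4 F) := by
        rw [hd, Matrix.smul_mul, one_mul, smul_smul]
      rw [htv, ← psm_scalar, ← map_mul, Matrix.smul_mul, one_mul, smul_smul, hi, neg_smul, one_smul, map_neg,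
        map_one] at h1
      have h3 := congrFun (congrFun h1 (Sum.inl 0)) (Sum.inl 0)
      simp at h3
      exact hm d h3.symm
  have hC5 : Fintype.card F ^ 5 ≤ {x : S4 F | x.val * fromBlocks (L i) 0 0 (L i) = fromBlocks (L i) 0 0 (L i) * x.val}.ncard := by
    have h1 : Nat.card (SpecialLinearGroup (Fin 2) E) ≤
        Nat.card {x : S4 F | x.val * fromBlocks (L i) 0 0 (L i) = fromBlocks (L i) 0 0 (L i) * x.val} :=
      Nat.card_le_card_of_injective (fun s => ⟨Psi L s, scalar_comm L i s.val⟩) (fun s s' hs =>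
        Psi_inj L hL (congrArg Subtype.val hs))
    rw [Nat.card_coe_set_eq] at h1
    refine le_trans ?_ ((card_sl_ge (E := E)).trans h1)
    rw [hE]
    have hq : 2 ≤ Fintype.card F := Fintype.one_lt_card
    have h3 : Fintype.card F ≤ Fintype.card F ^ 2 - 1 := by
      have : Fintype.card F * 2 ≤ Fintype.card F ^ 2 := by rw [pow_two]; exact Nat.mul_le_mul_left _ hq
      omega
    calc Fintype.card F ^ 5 = (Fintype.card F ^ 2) ^ 2 * Fintype.card F := by ring
      _ ≤ _ := Nat.mul_le_mul_left _ h3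
  have hlt : ∀ B : Subgroup (S4 F), (∀ b ∈ B, b.val * fromBlocks (L i) 0 0 (L i) = fromBlocks (L i) 0 0 (L i) * b.val) →
      (At A).relIndex B < Fintype.card F ^ 2 := by
    intro B hB
    exact relIndex_lt h ht hord (fun b hb => pr_comm htv' (hB b hb)) (C := {x : S4 F | x.val *
      fromBlocks (L i) 0 0 (L i) = fromBlocks (L i) 0 0 (L i) * x.val}) (fun x hx => pr_comm htv' hx) hC5
  have hcE : Fintype.card F ^ 2 ≤ Nat.card (Multiplicative E) := by
    rw [Nat.card_congr Multiplicative.toAdd, Nat.card_eq_fintype_card, hE]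
  refine ⟨?_, ?_⟩
  · let θ : Multiplicative E →* S4 F := up.comp (AddMonoidHom.toMultiplicative (L : E →+ M2 F))
    have hθ : Function.Injective θ := by
      intro a b hab
      have h1 := congrArg Subtype.val hab
      have h2 : fromBlocks 1 (L (Multiplicative.toAdd a)) 0 1 = fromBlocks 1 (L (Multiplicative.toAdd b)) 0 (1 : M2 F) := h1
      rw [fromBlocks_inj] at h2
      exact Multiplicative.toAdd.injective (hL h2.2.1)
    obtain ⟨e, he, hme⟩ := exists_mem θ hθ hcE (hlt θ.range (by
      rintro _ ⟨e, rfl⟩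
      show fromBlocks 1 (L (Multiplicative.toAdd e)) 0 1 * _ = _ * fromBlocks 1 (L (Multiplicative.toAdd e)) 0 1
      rw [fromBlocks_multiply, fromBlocks_multiply]
      simp [← map_mul, mul_comm]))
    exact ⟨Multiplicative.toAdd e, fun h3 => he (Multiplicative.toAdd.injective h3), hme⟩
  · let θ : Multiplicative E →* S4 F := lo.comp (AddMonoidHom.toMultiplicative (L : E →+ M2 F))
    have hθ : Function.Injective θ := by
      intro a b hab
      have h1 := congrArg Subtype.val hab
      have h2 : fromBlocks 1 0 (L (Multiplicative.toAdd a)) 1 = fromBlocks 1 0 (L (Multiplicative.toAdd b)) (1 : M2 F) := h1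
      rw [fromBlocks_inj] at h2
      exact Multiplicative.toAdd.injective (hL h2.2.2.1)
    obtain ⟨e, he, hme⟩ := exists_mem θ hθ hcE (hlt θ.range (by
      rintro _ ⟨e, rfl⟩
      show fromBlocks 1 0 (L (Multiplicative.toAdd e)) 1 * _ = _ * fromBlocks 1 0 (L (Multiplicative.toAdd e)) 1
      rw [fromBlocks_multiply, fromBlocks_multiply]
      simp [← map_mul, mul_comm]))
    exact ⟨Multiplicative.toAdd e, fun h3 => he (Multiplicative.toAdd.injective h3), hme⟩

end two

end Cfsg.Agent.H839.IF4
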