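import Cfsg.Agent.H839.IF4.TTwo

/-!
# S5719, cell `PSL four`, `q` odd, case (t2): the end (helper839)

* `span_top` : `SL₂(F)` spans `M₂(F)` additively;
* `fill` : `{a | blk (a, 1) ∈ At A}` (or the other side) spans and `up ψ, lo ψ' ∈ At A` with `ψ, ψ'` invertible: `A = ⊤`;
* `t2_false`.
-/

set_option autoImplicit false
set_option linter.unusedSectionVars false

namespace Cfsg.Agent.H839.IF4

open Matrix Module Cfsg.Agent.H209.Fxy Cfsg.Agent.H358.IF

variable {F : Type} [Field F]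

/-- `SL₂(F)` spans `M₂(F)` -/
theorem span_top : AddSubgroup.closure {M : M2 F | ∃ a : S2 F, M = a.val} = ⊤ := by
  set P := AddSubgroup.closure {M : M2 F | ∃ a : S2 F, M = a.val} with hP
  have hm : ∀ a : S2 F, a.val ∈ P := fun a => AddSubgroup.subset_closure ⟨a, rfl⟩
  have h1 : (1 : M2 F) ∈ P := hm 1
  have hu : ∀ c : F, !![0, c; 0, 0] ∈ P := by
    intro c
    have h2 := P.sub_mem (hm ⟨!![1, c; 0, 1], by rw [det_fin_two_of]; ring⟩) h1
    have h3 : !![1, c; 0, 1] - (1 : M2 F) = !![0, c; 0, 0] := by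
      ext i j
      fin_cases i <;> fin_cases j <;> simp
    rwa [← h3]
  have hl : ∀ c : F, !![0, 0; c, 0] ∈ P := by
    intro c
    have h2 := P.sub_mem (hm ⟨!![1, 0; c, 1], by rw [det_fin_two_of]; ring⟩) h1
    have h3 : !![1, 0; c, 1] - (1 : M2 F) = !![0, 0; c, 0] := by
      ext i j
      fin_cases i <;> fin_cases j <;> simp
    rwa [← h3]
  have ha : ∀ c : F, !![c, 0; 0, 0] ∈ P := by
    intro c
    have h2 := P.sub_mem (P.sub_mem (P.sub_mem (hm ⟨!![1 + c, c; 1, 1], by rw [det_fin_two_of]; ring⟩) h1) (hu c)) (hl 1)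
    have h3 : !![1 + c, c; 1, 1] - (1 : M2 F) - !![0, c; 0, 0] - !![0, 0; 1, 0] = !![c, 0; 0, 0] := by
      ext i j
      fin_cases i <;> fin_cases j <;> simp
    rwa [← h3]
  have hd : ∀ c : F, !![0, 0; 0, c] ∈ P := by
    intro c
    have h2 := P.sub_mem (P.sub_mem (P.sub_mem (hm ⟨!![1, c; 1, 1 + c], by rw [det_fin_two_of]; ring⟩) h1) (hu c)) (hl 1)
    have h3 : !![1, c; 1, 1 + c] - (1 : M2 F) - !![0, c; 0, 0] - !![0, 0; 1, 0] = !![0, 0; 0, c] := by
      ext i j
      fin_cases i <;> fin_cases j <;> simp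
    rwa [← h3]
  rw [AddSubgroup.eq_top_iff']
  intro M
  have h2 : M = !![M 0 0, 0; 0, 0] + !![0, M 0 1; 0, 0] + !![0, 0; M 1 0, 0] + !![0, 0; 0, M 1 1] := by
    ext i j
    fin_cases i <;> fin_cases j <;> simp
  rw [h2]
  exact P.add_mem (P.add_mem (P.add_mem (ha _) (hu _)) (hl _)) (hd _)

theorem blk_up_left (a : S2 F) (M : M2 F) : blk (a, 1) * up (Multiplicative.ofAdd M) * (blk (a, 1))⁻¹ =
    up (Multiplicative.ofAdd (a.val * M)) := by
  rw [mul_inv_eq_iff_eq_mul]
  apply Subtype.ext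
  show (blk (a, 1)).val * (up (Multiplicative.ofAdd M)).val = (up (Multiplicative.ofAdd (a.val * M))).val * (blk (a, 1)).val
  rw [blk_val, up_val, up_val, fromBlocks_multiply, fromBlocks_multiply]
  simp

theorem blk_lo_left (a : S2 F) (M : M2 F) : blk (a, 1)⁻¹ * lo (Multiplicative.ofAdd M) * blk (a, 1) =
    lo (Multiplicative.ofAdd (M * a.val)) := by
  rw [map_inv, mul_assoc, inv_mul_eq_iff_eq_mul]
  apply Subtype.ext
  show (lo (Multiplicative.ofAdd M)).val * (blk (a, 1)).val = (blk (a, 1)).val * (lo (Multiplicative.ofAdd (M * a.val))).val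
  rw [blk_val, lo_val, lo_val, fromBlocks_multiply, fromBlocks_multiply]
  simp

theorem blk_lo_right (b : S2 F) (M : M2 F) : blk (1, b) * lo (Multiplicative.ofAdd M) * (blk (1, b))⁻¹ =
    lo (Multiplicative.ofAdd (b.val * M)) := by
  rw [mul_inv_eq_iff_eq_mul]
  apply Subtype.ext
  show (blk (1, b)).val * (lo (Multiplicative.ofAdd M)).val = (lo (Multiplicative.ofAdd (b.val * M))).val * (blk (1, b)).val
  rw [blk_val, lo_val, lo_val, fromBlocks_multiply, fromBlocks_multiply]
  simp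

theorem blk_up_right (b : S2 F) (M : M2 F) : blk (1, b)⁻¹ * up (Multiplicative.ofAdd M) * blk (1, b) =
    up (Multiplicative.ofAdd (M * b.val)) := by
  rw [map_inv, mul_assoc, inv_mul_eq_iff_eq_mul]
  apply Subtype.ext
  show (up (Multiplicative.ofAdd M)).val * (blk (1, b)).val = (blk (1, b)).val * (up (Multiplicative.ofAdd (M * b.val))).val
  rw [blk_val, up_val, up_val, fromBlocks_multiply, fromBlocks_multiply]
  simp

section

variable {A : Subgroup (P4 F)}

/-- the additive group of the `M` with `up M ∈ At A` -/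
def PU (A : Subgroup (P4 F)) : AddSubgroup (M2 F) where
  carrier := {M | up (Multiplicative.ofAdd M) ∈ At A}
  add_mem' := fun {M N} hM hN => by
    show up (Multiplicative.ofAdd (M + N)) ∈ At A
    rw [ofAdd_add, map_mul]
    exact mul_mem hM hN
  zero_mem' := by
    show up (Multiplicative.ofAdd 0) ∈ At A
    rw [ofAdd_zero, map_one]
    exact one_mem _
  neg_mem' := fun {M} hM => by
    show up (Multiplicative.ofAdd (-M)) ∈ At A
    rw [ofAdd_neg, map_inv]
    exact inv_mem hM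

/-- the additive group of the `M` with `lo M ∈ At A` -/
def PL (A : Subgroup (P4 F)) : AddSubgroup (M2 F) where
  carrier := {M | lo (Multiplicative.ofAdd M) ∈ At A}
  add_mem' := fun {M N} hM hN => by
    show lo (Multiplicative.ofAdd (M + N)) ∈ At A
    rw [ofAdd_add, map_mul]
    exact mul_mem hM hN
  zero_mem' := by
    show lo (Multiplicative.ofAdd 0) ∈ At A
    rw [ofAdd_zero, map_one]
    exact one_mem _
  neg_mem' := fun {M} hM => by
    show lo (Multiplicative.ofAdd (-M)) ∈ At A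
    rw [ofAdd_neg, map_inv]
    exact inv_mem hM

theorem mem_PU {M : M2 F} : M ∈ PU A ↔ up (Multiplicative.ofAdd M) ∈ At A := Iff.rfl
theorem mem_PL {M : M2 F} : M ∈ PL A ↔ lo (Multiplicative.ofAdd M) ∈ At A := Iff.rfl

/-- a set of matrices spanning additively, multiplied from the left into `P` -/
theorem all_left {S : Set (M2 F)} (hS : AddSubgroup.closure S = ⊤) (P : AddSubgroup (M2 F)) {ψ : M2 F} (hψ : IsUnit ψ)
    (h : ∀ a ∈ S, a * ψ ∈ P) : P = ⊤ := by
  have h1 : AddSubgroup.closure S ≤ P.comap (AddMonoidHom.mulRight ψ) := by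
    rw [AddSubgroup.closure_le]
    intro a ha
    exact h a ha
  rw [hS] at h1
  rw [AddSubgroup.eq_top_iff']
  intro M
  obtain ⟨u, rfl⟩ := hψ
  have h2 : M * (u⁻¹ : (M2 F)ˣ).val ∈ P.comap (AddMonoidHom.mulRight u.val) := h1 (AddSubgroup.mem_top _)
  have h3 : M * (u⁻¹ : (M2 F)ˣ).val * u.val ∈ P := h2
  rwa [mul_assoc, Units.inv_mul, mul_one] at h3

theorem all_right {S : Set (M2 F)} (hS : AddSubgroup.closure S = ⊤) (P : AddSubgroup (M2 F)) {ψ : M2 F} (hψ : IsUnit ψ)
    (h : ∀ a ∈ S, ψ * a ∈ P) : P = ⊤ := by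
  have h1 : AddSubgroup.closure S ≤ P.comap (AddMonoidHom.mulLeft ψ) := by
    rw [AddSubgroup.closure_le]
    intro a ha
    exact h a ha
  rw [hS] at h1
  rw [AddSubgroup.eq_top_iff']
  intro M
  obtain ⟨u, rfl⟩ := hψ
  have h2 : (u⁻¹ : (M2 F)ˣ).val * M ∈ P.comap (AddMonoidHom.mulLeft u.val) := h1 (AddSubgroup.mem_top _)
  have h3 : u.val * ((u⁻¹ : (M2 F)ˣ).val * M) ∈ P := h2
  rwa [← mul_assoc, Units.mul_inv, one_mul] at h3

/-- `up` and `lo` generate -/
theorem not_UL (h : IFA A) (hU : PU A = ⊤) (hL : PL A = ⊤) : False := by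
  have hu : ∀ M : M2 F, up (Multiplicative.ofAdd M) ∈ At A := fun M => by
    rw [← mem_PU, hU]
    exact AddSubgroup.mem_top _
  have hl : ∀ M : M2 F, lo (Multiplicative.ofAdd M) ∈ At A := fun M => by
    rw [← mem_PL, hL]
    exact AddSubgroup.mem_top _
  have h1 : ∀ a b : Fin 2, Rt A (Sum.inl a) (Sum.inr b) := by
    intro a b hab c
    convert hu (Matrix.single a b c) using 1
    apply Subtype.ext
    show Matrix.transvection (Sum.inl a) (Sum.inr b) c = fromBlocks 1 (Matrix.single a b c) 0 1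
    rw [Matrix.transvection]
    ext i j
    rcases i with i | i <;> rcases j with j | j <;> simp [Matrix.single_apply, Matrix.one_apply]
  have h2 : ∀ a b : Fin 2, Rt A (Sum.inr a) (Sum.inl b) := by
    intro a b hab c
    convert hl (Matrix.single a b c) using 1
    apply Subtype.ext
    show Matrix.transvection (Sum.inr a) (Sum.inl b) c = fromBlocks 1 0 (Matrix.single a b c) 1
    rw [Matrix.transvection]
    ext i j
    rcases i with i | i <;> rcases j with j | j <;> simp [Matrix.single_apply, Matrix.one_apply]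
  have hnt : Nontrivial I4 := ⟨Sum.inl 0, Sum.inr 0, by simp⟩
  apply h.not_all
  rintro (a | a) (b | b) hab
  · exact (h1 a 0).trans (h2 0 b) (by simp) (by simp)
  · exact h1 a b
  · exact h2 a b
  · exact (h2 a 0).trans (h1 0 b) (by simp) (by simp)

/-- **fill** -/
theorem fill (h : IFA A) {ψ ψ' : M2 F} (hψ : IsUnit ψ) (hψ' : IsUnit ψ') (hu : up (Multiplicative.ofAdd ψ) ∈ At A)
    (hl : lo (Multiplicative.ofAdd ψ') ∈ At A)
    (hs : AddSubgroup.closure {M : M2 F | ∃ a : S2 F, blk (a, 1) ∈ At A ∧ M = a.val} = ⊤ ∨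
      AddSubgroup.closure {M : M2 F | ∃ b : S2 F, blk (1, b) ∈ At A ∧ M = b.val} = ⊤) : False := by
  rcases hs with hs | hs
  · refine not_UL h (all_left hs _ hψ ?_) (all_right hs _ hψ' ?_)
    · rintro _ ⟨a, ha, rfl⟩
      rw [mem_PU, ← blk_up_left]
      exact mul_mem (mul_mem ha hu) (inv_mem ha)
    · rintro _ ⟨a, ha, rfl⟩
      rw [mem_PL, ← blk_lo_left]
      refine mul_mem (mul_mem ?_ hl) ha
      rw [map_inv]
      exact inv_mem ha
  · refine not_UL h (all_right hs _ hψ ?_) (all_left hs _ hψ' ?_)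
    · rintro _ ⟨b, hb, rfl⟩
      rw [mem_PU, ← blk_up_right]
      refine mul_mem (mul_mem ?_ hu) hb
      rw [map_inv]
      exact inv_mem hb
    · rintro _ ⟨b, hb, rfl⟩
      rw [mem_PL, ← blk_lo_right]
      exact mul_mem (mul_mem hb hl) (inv_mem hb)

end

/-! ### diagonalization over `E` -/

/-- `y ∈ SL₂(E)`, `y² = -1 = i²`: eigenvectors -/
theorem exists_diag {E : Type} [Field E] (h2 : (2 : E) ≠ 0) {i : E} (hi : i * i = -1) {y : SpecialLinearGroup (Fin 2) E}
    (hy : y.val * y.val = -1) : ∃ g : GL (Fin 2) E, y.val * g.val = g.val * !![i, 0; 0, -i] := by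
  have hi0 : i ≠ 0 := by
    rintro rfl
    rw [mul_zero] at hi
    exact one_ne_zero (α := E) (by linear_combination hi)
  have hne : ∀ e : E, e * e = -1 → y.val ≠ e • (1 : Matrix (Fin 2) (Fin 2) E) := by
    intro e he h
    have h1 := y.2
    rw [h, det_smul, det_one, Fintype.card_fin, mul_one, pow_two, he] at h1
    exact h2 (by linear_combination -h1)
  -- an eigenvector for `e`
  have key : ∀ e : E, e * e = -1 → ∃ v : Fin 2 → E, v ≠ 0 ∧ y.val *ᵥ v = e • v := by
    intro e he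
    have h1 : y.val + e • (1 : Matrix (Fin 2) (Fin 2) E) ≠ 0 := by
      intro h
      apply hne (-e) (by rw [neg_mul_neg]; exact he)
      rw [neg_smul]
      exact eq_neg_of_add_eq_zero_left h
    obtain ⟨w, hw⟩ : ∃ w : Fin 2 → E, (y.val + e • (1 : Matrix (Fin 2) (Fin 2) E)) *ᵥ w ≠ 0 := by
      by_contra hcon
      push Not at hcon
      apply h1
      ext a b
      have := congrFun (hcon (Pi.single b 1)) a
      rw [mulVec_single_one] at this
      exact this
    refine ⟨_, hw, ?_⟩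
    rw [mulVec_mulVec, ← smul_mulVec]
    congr 1
    rw [mul_add, hy, Matrix.mul_smul, mul_one, smul_add, smul_smul, he, neg_smul, one_smul, add_comm]
  obtain ⟨v, hv, hyv⟩ := key i hi
  obtain ⟨u, hu, hyu⟩ := key (-i) (by rw [neg_mul_neg]; exact hi)
  have hd : (!![v 0, u 0; v 1, u 1] : Matrix (Fin 2) (Fin 2) E).det ≠ 0 := by
    rw [det_fin_two_of]
    intro h0
    -- `u b • v = v b • u`
    have h3 : ∀ b, u b • v = v b • u := by
      intro b
      funext a
      fin_cases a <;> fin_cases b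
      · show u 0 * v 0 = v 0 * u 0
        ring
      · show u 1 * v 0 = v 1 * u 0
        linear_combination h0
      · show u 0 * v 1 = v 0 * u 1
        linear_combination -h0
      · show u 1 * v 1 = v 1 * u 1
        ring
    have h4 : ∀ b, u b • v = 0 := by
      intro b
      have h5 := congrArg (fun w => y.val *ᵥ w) (h3 b)
      simp only [mulVec_smul, hyv, hyu] at h5
      have h6 : (2 * i) • (u b • v) = 0 := by
        have h7 : (u b • i • v : Fin 2 → E) = i • (u b • v) := smul_comm _ _ _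
        have h8 : (v b • (-i) • u : Fin 2 → E) = -(i • (v b • u)) := by rw [smul_comm, neg_smul]
        rw [h7, h8, ← h3 b] at h5
        rw [mul_smul, two_smul]
        exact eq_neg_iff_add_eq_zero.1 h5
      exact (smul_eq_zero.1 h6).resolve_left (mul_ne_zero h2 hi0)
    apply hu
    funext b
    exact (smul_eq_zero.1 (h4 b)).resolve_right hv
  let g := Matrix.GeneralLinearGroup.mkOfDetNeZero _ hd
  refine ⟨g, ?_⟩
  have hg : g.val = !![v 0, u 0; v 1, u 1] := rfl
  rw [hg]
  have e1 : ∀ a, y.val a 0 * v 0 + y.val a 1 * v 1 = i * v a := by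
    intro a
    have : (y.val *ᵥ v) a = i * v a := by rw [hyv]; rfl
    rw [← this, mulVec, dotProduct, Fin.sum_univ_two]
  have e2 : ∀ a, y.val a 0 * u 0 + y.val a 1 * u 1 = -i * u a := by
    intro a
    have : (y.val *ᵥ u) a = -i * u a := by rw [hyu]; rfl
    rw [← this, mulVec, dotProduct, Fin.sum_univ_two]
  ext a c
  fin_cases a <;> fin_cases c <;> rw [Matrix.mul_apply, Matrix.mul_apply, Fin.sum_univ_two, Fin.sum_univ_two]
  · simpa [mul_comm] using e1 0
  · simpa [mul_comm] using e2 0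
  · simpa [mul_comm] using e1 1
  · simpa [mul_comm] using e2 1

/-! ### the end -/

section fin

variable [Fintype F] {A : Subgroup (P4 F)}

theorem key_E {E : Type} [Field E] [Fintype E] {L : E →+* M2 F} (h2 : (2 : F) ≠ 0) (hm : ∀ c : F, c * c ≠ -1)
    (hL : Function.Injective L) (hE : Fintype.card E = Fintype.card F ^ 2) {i : E} (hi : i * i = -1)
    (h : IFA A) {t : S4 F} (ht : t ∈ At A) (htv : t.val = fromBlocks (L i) 0 0 (L i))
    (hL1 : ∀ A' : Subgroup (P4 F), IFA A' → blk (-1, 1) ∈ At A' →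
      AddSubgroup.closure {M : M2 F | ∃ a : S2 F, blk (a, 1) ∈ At A' ∧ M = a.val} = ⊤ ∨
      AddSubgroup.closure {M : M2 F | ∃ b : S2 F, blk (1, b) ∈ At A' ∧ M = b.val} = ⊤) : False := by
  have h2E : (2 : E) ≠ 0 := by
    intro h0
    have h3 : L 2 = L 0 := by rw [h0]
    rw [map_ofNat, map_zero] at h3
    have h4 := congrFun (congrFun h3 0) 0
    have h5 : (2 : M2 F) 0 0 = 2 := rfl
    exact h2 (by rw [← h5, h4]; rfl)
  have hunit : ∀ e : E, e ≠ 0 → IsUnit (L e) := fun e he => (IsUnit.mk0 e he).map L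
  obtain ⟨⟨e, he, hu⟩, ⟨e', he', hl⟩⟩ := two_mem hL hE hi hm h ht htv
  -- (LR) over `E`
  let xu : SpecialLinearGroup (Fin 2) E := ⟨!![1, e; 0, 1], by rw [det_fin_two_of]; ring⟩
  let xl : SpecialLinearGroup (Fin 2) E := ⟨!![1, 0; e', 1], by rw [det_fin_two_of]; ring⟩
  have hxu : Psi L xu = up (Multiplicative.ofAdd (L e)) := by
    apply Subtype.ext
    show psm L !![1, e; 0, 1] = fromBlocks 1 (L e) 0 1
    rw [psm_apply]
    simp
  have hxl : Psi L xl = lo (Multiplicative.ofAdd (L e')) := by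
    apply Subtype.ext
    show psm L !![1, 0; e', 1] = fromBlocks 1 0 (L e') 1
    rw [psm_apply]
    simp
  have mxu : xu ∈ (At A).comap (Psi L) := by
    rw [Subgroup.mem_comap, hxu]
    exact hu
  have mxl : xl ∈ (At A).comap (Psi L) := by
    rw [Subgroup.mem_comap, hxl]
    exact hl
  obtain ⟨y, hy, hyy⟩ := Cfsg.Agent.H411.L4.exists_sq h2E he he' ((At A).comap (Psi L)) mxu mxl rfl rfl
  obtain ⟨g, hg⟩ := exists_diag h2E hi (y := y) hyy
  have hA' := h.conj (PsiG L g)⁻¹
  have hcs : ∀ s : S4 F, (cS (PsiG L g)⁻¹ s).val = psm L (g⁻¹ : GL (Fin 2) E).val * s.val * psm L g.val := by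
    intro s
    rw [cS_val, inv_inv, PsiG_inv_val, PsiG_val]
  -- `t` is fixed by the conjugation
  have ht' : t ∈ At (cA (PsiG L g)⁻¹ A) := by
    have h3 : cS (PsiG L g)⁻¹ t = t := by
      apply Subtype.ext
      rw [hcs, htv, scalar_comm, mul_assoc, ← map_mul, Units.inv_mul, map_one, mul_one]
    rw [← h3]
    exact mem_cA.2 ht
  -- the involution
  have hm1 : blk (-1, 1) ∈ At (cA (PsiG L g)⁻¹ A) := by
    have h3 : cS (PsiG L g)⁻¹ (Psi L y * t) = blk (-1, 1) := by
      apply Subtype.ext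
      rw [hcs]
      show psm L (g⁻¹ : GL (Fin 2) E).val * (psm L y.val * t.val) * psm L g.val = (blk (-1, 1)).val
      rw [htv, ← psm_scalar, ← map_mul, ← map_mul, ← map_mul, Matrix.mul_smul, mul_one, Matrix.mul_smul,
        Matrix.smul_mul, mul_assoc, hg, ← mul_assoc, Units.inv_mul, one_mul, psm_apply, blk_val]
      have h5 : (i • !![i, 0; 0, -i] : Matrix (Fin 2) (Fin 2) E) = !![-1, 0; 0, 1] := by
        ext a b
        fin_cases a <;> fin_cases b <;> simp [hi]
      rw [h5]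
      simp
    rw [← h3]
    exact mem_cA.2 (mul_mem hy ht)
  obtain ⟨⟨e₁, he₁, hu₁⟩, ⟨e₂, he₂, hl₂⟩⟩ := two_mem hL hE hi hm hA' ht' htv
  exact fill hA' (hunit e₁ he₁) (hunit e₂ he₂) hu₁ hl₂ (hL1 _ hA' hm1)

/-- **case (t2)** -/
theorem t2_false (h2 : (2 : F) ≠ 0) (hm : ∀ c : F, c * c ≠ -1) (h : IFA A) (j₀ : S2 F) (hj : j₀.val * j₀.val = -1)
    (ht : blk (j₀, j₀) ∈ At A)
    (hL1 : ∀ A' : Subgroup (P4 F), IFA A' → blk (-1, 1) ∈ At A' →
      AddSubgroup.closure {M : M2 F | ∃ a : S2 F, blk (a, 1) ∈ At A' ∧ M = a.val} = ⊤ ∨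
      AddSubgroup.closure {M : M2 F | ∃ b : S2 F, blk (1, b) ∈ At A' ∧ M = b.val} = ⊤) : False := by
  obtain ⟨E, _, _, L, i, hL, hi, hE⟩ := exists_ext hm
  have hLi : L i * L i = -1 := by rw [← map_mul, hi, map_neg, map_one]
  obtain ⟨g, hg⟩ := conj_of_sq hm hj hLi
  have h1 : cS (gg g g) (blk (j₀, j₀)) ∈ At (cA (gg g g) A) := mem_cA.2 ht
  refine key_E h2 hm hL hE hi (h.conj (gg g g)) h1 ?_ hL1
  rw [cS_gg_blk, blk_val]
  have h3 : (cS g j₀).val = L i := by
    rw [cS_val, hg, mul_assoc, Units.mul_inv, mul_one]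
  rw [h3]

end fin

end Cfsg.Agent.H839.IF4
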